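import Cfsg.Agent.Lib.Mathieu.Order7920.Involutions
import Cfsg.Agent.Lib.Mathieu.Order7920.Five

/-!
Simple groups of order 7920: the subgroups of order 360 are simple and the elements of order 3 are
conjugate.
-/

set_option autoImplicit false

namespace CfsgLib.Mathieu.Order7920

open Subgroup MulAction

universe u v

variable {G : Type u} [Group G] [Finite G]

local instance fact_prime_two_360 : Fact (Nat.Prime 2) := ⟨Nat.prime_two⟩
local instance fact_prime_three_360 : Fact (Nat.Prime 3) := ⟨by norm_num⟩
local instance fact_prime_five_360 : Fact (Nat.Prime 5) := ⟨by norm_num⟩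

/-- All elements of order 3 are conjugate. -/
theorem isConj_of_orderOf_three (hM : Cfsg.IsM11 G) {x y : G} (hx : orderOf x = 3)
    (hy : orderOf y = 3) : IsConj x y := by
  obtain ⟨T, hT⟩ := (IsPGroup.of_card (p := 3) (n := 1)
    (by rw [Nat.card_zpowers, hx, pow_one] : Nat.card (zpowers x) = 3 ^ 1)).exists_le_sylow
  obtain ⟨T', hT'⟩ := (IsPGroup.of_card (p := 3) (n := 1)
    (by rw [Nat.card_zpowers, hy, pow_one] : Nat.card (zpowers y) = 3 ^ 1)).exists_le_sylow
  obtain ⟨g, hg⟩ := exists_conj_sylow T T'
  have hx1 : g * x * g⁻¹ ≠ 1 := fun e => by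
    rw [conj_eq_one_iff] at e; rw [e, orderOf_one] at hx; omega
  have hy1 : y ≠ 1 := fun e => by rw [e, orderOf_one] at hy; omega
  obtain ⟨n, -, hn⟩ := exists_conj_three hM ((hg x).2 (hT (mem_zpowers x))) hx1
    (hT' (mem_zpowers y)) hy1
  exact isConj_iff.2 ⟨n * g, by rw [← hn]; group⟩

section Aux

variable {H : Type v} [Group H]

/-- Normalisers inside a group mapped injectively. -/
theorem card_normalizer_dvd_map (f : H →* G) (hf : Function.Injective f) (Q : Subgroup H) :
    Nat.card (normalizer (Q : Set H)) ∣ Nat.card (normalizer ((Q.map f : Subgroup G) : Set G)) := by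
  rw [← card_map_of_injective (K := normalizer (Q : Set H)) hf]
  exact card_dvd_of_le (le_normalizer_map f)

/-- The normaliser of a subgroup of order 5. -/
theorem normalizer_five_dvd (hM : Cfsg.IsM11 G) (f : H →* G) (hf : Function.Injective f)
    {Q : Subgroup H} (hQ : Nat.card Q = 5) : Nat.card (normalizer (Q : Set H)) ∣ 20 := by
  have hc : Nat.card (Q.map f) = 5 := by rw [card_map_of_injective hf, hQ]
  obtain ⟨R, hR⟩ := (IsPGroup.of_card (p := 5) (n := 1) (by rw [hc, pow_one])).exists_le_sylow
  have he := Subgroup.eq_of_le_of_card_ge hR (by rw [hc, card_sylow_five_eq hM R])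
  have h := card_normalizer_dvd_map f hf Q
  rwa [he, normalizer_five hM R] at h

/-- The normaliser of a subgroup of order 9. -/
theorem normalizer_nine_dvd (hM : Cfsg.IsM11 G) (f : H →* G) (hf : Function.Injective f)
    {Q : Subgroup H} (hQ : Nat.card Q = 9) : Nat.card (normalizer (Q : Set H)) ∣ 144 := by
  have hc : Nat.card (Q.map f) = 3 ^ 2 := by rw [card_map_of_injective hf, hQ]; norm_num
  obtain ⟨R, hR⟩ := (IsPGroup.of_card hc).exists_le_sylow
  have he := Subgroup.eq_of_le_of_card_ge hR (by rw [hc, card_three_sylow hM R]; norm_num)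
  have h := card_normalizer_dvd_map f hf Q
  rw [he] at h
  rwa [show Nat.card (normalizer ((R : Subgroup G) : Set G)) = 144 from
    (sylow_three hM R).2.1] at h

/-- The Frattini argument, as a divisibility. -/
theorem index_dvd_normalizer {p : ℕ} [Fact p.Prime] [Finite H] (N : Subgroup H) [N.Normal]
    (P : Sylow p N) :
    N.index ∣ Nat.card (normalizer (((P : Subgroup N).map N.subtype : Subgroup H) : Set H)) := by
  have h := Sylow.normalizer_sup_eq_top P
  refine Subgroup.card_dvd_of_surjective
    ((QuotientGroup.mk' N).comp (Subgroup.subtype _)) ?_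
  intro q
  obtain ⟨x, rfl⟩ := QuotientGroup.mk'_surjective N q
  have hx : x ∈ normalizer (((P : Subgroup N).map N.subtype : Subgroup H) : Set H) ⊔ N := by
    rw [h]; trivial
  obtain ⟨a, ha, n, hn, rfl⟩ := Subgroup.mem_sup_of_normal_right.1 hx
  refine ⟨⟨a, ha⟩, ?_⟩
  show QuotientGroup.mk' N a = QuotientGroup.mk' N (a * n)
  rw [map_mul, show QuotientGroup.mk' N n = 1 from (QuotientGroup.eq_one_iff n).2 hn, mul_one]

/-- A normal subgroup containing a Sylow 3-subgroup has index prime to 5. -/
theorem not_five_dvd_index (hM : Cfsg.IsM11 G) [Finite H] (f : H →* G) (hf : Function.Injective f)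
    (N : Subgroup H) [N.Normal] {m : ℕ} (hN : Nat.card N = 9 * m) (hm : ¬ 3 ∣ m) :
    ¬ 5 ∣ N.index := by
  intro h5
  obtain ⟨P⟩ := (inferInstance : Nonempty (Sylow 3 N))
  have hP : Nat.card (P : Subgroup N) = 9 := by
    simpa using CfsgLib.SmallGroups.card_sylow_eq (p := 3) (a := 2) (m := m)
      (by rw [hN]; norm_num) hm P
  have hc : Nat.card ((P : Subgroup N).map N.subtype) = 9 := by
    rw [card_map_of_injective (Subgroup.subtype_injective N), hP]
  have := (h5.trans (index_dvd_normalizer N P)).trans (normalizer_nine_dvd hM f hf hc)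
  norm_num at this

/-- There is no subgroup of order 90 or 180. -/
theorem false_of_card_mult_ninety (hM : Cfsg.IsM11 G) [Finite H] (f : H →* G)
    (hf : Function.Injective f) (hH : Nat.card H = 90 ∨ Nat.card H = 180) : False := by
  obtain ⟨R⟩ := (inferInstance : Nonempty (Sylow 5 H))
  have hR : Nat.card (R : Subgroup H) = 5 := by
    rcases hH with h | h
    · simpa using CfsgLib.SmallGroups.card_sylow_eq (p := 5) (a := 1) (m := 18)
        (by rw [h]; norm_num) (by norm_num) R
    · simpa using CfsgLib.SmallGroups.card_sylow_eq (p := 5) (a := 1) (m := 36)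
        (by rw [h]; norm_num) (by norm_num) R
  have h20 := normalizer_five_dvd hM f hf hR
  have hle : (R : Subgroup H) ≤ normalizer ((R : Subgroup H) : Set H) := le_normalizer
  have h5 : 5 ∣ Nat.card (normalizer ((R : Subgroup H) : Set H)) := by
    have := card_dvd_of_le hle; rwa [hR] at this
  have hmul := CfsgLib.SmallGroups.card_sylow_mul_card_normalizer R
  have hmod := card_sylow_modEq_one 5 H
  unfold Nat.ModEq at hmod
  obtain ⟨k, hk⟩ := h5
  have hk4 : k ∣ 4 := Nat.dvd_of_mul_dvd_mul_left (by norm_num : 0 < 5) (by rw [← hk]; simpa using h20)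
  rw [hk] at hmul
  have hk' : k = 1 ∧ Nat.card H = 180 := by
    have hk5 := Nat.le_of_dvd (by norm_num) hk4
    interval_cases k <;> first | omega | (exfalso; norm_num at hk4)
  have hnorm : normalizer ((R : Subgroup H) : Set H) ≤ centralizer ((R : Subgroup H) : Set H) := by
    rw [← Subgroup.eq_of_le_of_card_ge hle (by rw [hk, hk'.1, hR])]
    have : IsCyclic (R : Subgroup H) := isCyclic_of_prime_card hR
    intro x hx
    refine mem_centralizer_iff.2 fun y hy => ?_
    exact congrArg Subtype.val
      (IsCyclic.isMulCommutative.is_comm.comm (⟨y, hy⟩ : (R : Subgroup H)) ⟨x, hx⟩)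
  have hcompl := MonoidHom.ker_transferSylow_isComplement' R hnorm
  have hcard := hcompl.card_mul_card
  rw [hR, hk'.2] at hcard
  refine not_five_dvd_index hM f hf (MonoidHom.transferSylow R hnorm).ker (m := 4) (by omega)
    (by norm_num) ?_
  rw [hcompl.symm.index_eq_card, hR]

/-- An element of order 5 normalises no nontrivial subgroup of small 2- or 3-power order. -/
theorem false_of_five_normalizes (hM : Cfsg.IsM11 G) {p : ℕ} [hp : Fact p.Prime] {P : Subgroup G}
    (hP : IsPGroup p P) (h24 : Nat.card P ∣ 24) (hne : P ≠ ⊥) {b : G} (hb : orderOf b = 5)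
    (hbn : b ∈ normalizer (P : Set G)) : False := by
  have hQ : IsPGroup 5 (zpowers b) :=
    IsPGroup.of_card (n := 1) (by rw [Nat.card_zpowers, hb, pow_one])
  have hmod := card_modEq_conj hQ (P : Set G) (fun k hk s hs =>
    (Subgroup.mem_normalizer_iff.1 (zpowers_le.2 hbn hk) s).1 hs)
  have hone : Nat.card {s : G | s ∈ (P : Set G) ∧ ∀ k ∈ zpowers b, k * s = s * k} = 1 := by
    have : {s : G | s ∈ (P : Set G) ∧ ∀ k ∈ zpowers b, k * s = s * k} = {1} := by
      ext s
      refine ⟨fun hs => ?_, fun hs => ?_⟩
      · have hsb : s ∈ zpowers b := by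
          rw [← centralizer_orderOf_five hM hb]
          exact mem_centralizer_singleton_iff.2 (hs.2 b (mem_zpowers b)).symm
        have h1 : orderOf s ∣ 5 := by
          rw [← hb]; exact orderOf_dvd_of_mem_zpowers hsb
        have h2 : orderOf s ∣ 24 := (Subgroup.orderOf_dvd_natCard _ hs.1).trans h24
        exact orderOf_eq_one_iff.1 (Nat.dvd_one.1 (Nat.dvd_gcd h1 h2))
      · rw [Set.mem_singleton_iff] at hs
        subst hs
        exact ⟨one_mem P, fun k _ => by simp⟩
    rw [this]; simp
  rw [hone] at hmod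
  have hmod' : Nat.card P % 5 = 1 := hmod
  obtain ⟨n, hn⟩ := (IsPGroup.iff_card).1 hP
  have hle := Nat.le_of_dvd (by norm_num) h24
  have h1 : Nat.card P ≠ 1 := fun e => hne (Subgroup.eq_bot_of_card_eq P e)
  have h6 : Nat.card P = 6 := by
    generalize Nat.card P = c at h24 hmod' hle h1
    interval_cases c <;> omega
  rw [h6] at hn
  have e2 := (Nat.prime_dvd_prime_iff_eq Nat.prime_two hp.out).1
    (Nat.prime_two.dvd_of_dvd_pow (hn ▸ (by norm_num : 2 ∣ 6)))
  have e3 := (Nat.prime_dvd_prime_iff_eq Nat.prime_three hp.out).1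
    (Nat.prime_three.dvd_of_dvd_pow (hn ▸ (by norm_num : 3 ∣ 6)))
  omega

end Aux

/-- Subgroups of order 360 are simple. -/
theorem isSimpleGroup_of_card (hM : Cfsg.IsM11 G) (K : Subgroup G) (hK : Nat.card K = 360) :
    IsSimpleGroup K := by
  have : Nontrivial K := Finite.one_lt_card_iff_nontrivial.1 (by rw [hK]; norm_num)
  refine ⟨fun N hN => ?_⟩
  by_contra hne
  obtain ⟨hbot, htop⟩ := not_or.1 hne
  have hf : Function.Injective K.subtype := K.subtype_injective
  have hd : Nat.card N * N.index = 360 := by rw [N.card_mul_index, hK]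
  have hd1 : Nat.card N ≠ 1 := fun e => hbot (Subgroup.eq_bot_of_card_eq N e)
  have hi1 : N.index ≠ 1 := fun e => htop (Subgroup.index_eq_one.1 e)
  by_cases h5 : 5 ∣ Nat.card N
  · -- the Frattini argument on a subgroup of order 5
    obtain ⟨m, hm⟩ := h5
    have hm5 : ¬ 5 ∣ m := by
      rintro ⟨j, rfl⟩
      have : 25 ∣ 360 := ⟨j * N.index, by rw [← hd, hm]; ring⟩
      norm_num at this
    obtain ⟨P⟩ := (inferInstance : Nonempty (Sylow 5 N))
    have hP : Nat.card (P : Subgroup N) = 5 := by
      simpa using CfsgLib.SmallGroups.card_sylow_eq (p := 5) (a := 1) (m := m)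
        (by rw [hm, pow_one]) hm5 P
    have hc : Nat.card ((P : Subgroup N).map N.subtype) = 5 := by
      rw [card_map_of_injective N.subtype_injective, hP]
    have h20 := (index_dvd_normalizer N P).trans (normalizer_five_dvd hM K.subtype hf hc)
    have hi20 := Nat.le_of_dvd (by norm_num) h20
    have key : (Nat.card N = 90 ∨ Nat.card N = 180) ∨
        (Nat.card N = 72 ∨ Nat.card N = 36 ∨ Nat.card N = 18) := by
      generalize N.index = i at hd h20 hi20 hi1
      interval_cases i <;> first | omega | (exfalso; norm_num at h20)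
    rcases key with h | h | h | h
    · exact false_of_card_mult_ninety hM (K.subtype.comp N.subtype)
        (hf.comp N.subtype_injective) h
    all_goals omega
  · have hi5 : 5 ∣ N.index := by
      have : 5 ∣ Nat.card N * N.index := by rw [hd]; norm_num
      exact ((Nat.Prime.dvd_mul (by norm_num)).1 this).resolve_left h5
    have h9 : ¬ 9 ∣ Nat.card N := by
      rintro ⟨m, hm⟩
      refine not_five_dvd_index hM K.subtype hf N hm ?_ hi5
      rintro ⟨j, rfl⟩
      have : 27 ∣ 360 := ⟨j * N.index, by rw [← hd, hm]; ring⟩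
      norm_num at this
    have h24 : Nat.card N ∣ 24 := by
      have hdiv : Nat.card N ∣ 360 := ⟨_, hd.symm⟩
      have hle := Nat.le_of_dvd (by norm_num) hdiv
      have h72 : Nat.card N ∣ 72 :=
        (Nat.Coprime.dvd_of_dvd_mul_left ((Nat.Prime.coprime_iff_not_dvd (by norm_num)).2 h5).symm
          (show Nat.card N ∣ 5 * 72 from hdiv))
      have := Nat.le_of_dvd (by norm_num) h72
      generalize Nat.card N = c at h72 h9 this
      interval_cases c <;> first | omega | (exfalso; norm_num at h72) | norm_num
    obtain ⟨p, hp, hpd⟩ := Nat.exists_prime_and_dvd hd1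
    have : Fact p.Prime := ⟨hp⟩
    obtain ⟨P⟩ := (inferInstance : Nonempty (Sylow p N))
    set Q : Subgroup K := (P : Subgroup N).map N.subtype with hQ
    obtain ⟨b, hb⟩ := exists_prime_orderOf_dvd_card' (G := normalizer (Q : Set K)) 5
      (hi5.trans (index_dvd_normalizer N P))
    refine false_of_five_normalizes hM (P := Q.map K.subtype) ((P.2.map _).map _) ?_ ?_
      (b := ((b : K) : G)) (by rw [orderOf_coe, orderOf_coe, hb]) ?_
    · rw [card_map_of_injective hf, hQ, card_map_of_injective N.subtype_injective]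
      exact (Subgroup.card_subgroup_dvd_card _).trans h24
    · intro e
      rw [Subgroup.map_eq_bot_iff_of_injective _ hf, hQ,
        Subgroup.map_eq_bot_iff_of_injective _ N.subtype_injective] at e
      exact P.ne_bot_of_dvd_card hpd e
    · exact le_normalizer_map K.subtype ⟨(b : K), b.2, rfl⟩

end CfsgLib.Mathieu.Order7920
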